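import Mathlib
import Cfsg.Agent.FFModule.Basic
import Cfsg.Agent.Constrained.CyclicNormalSylow
import Cfsg.Agent.LocalP.ThompsonJ
import Cfsg.Agent.Eq.Def_PLocal
import Cfsg.Agent.Eq.Def_Solvable
import Cfsg.Agent.Eq.Def_Local

/-!
The offender bound `|A| |C_V(A)| ≤ |A ∩ C(V)| |V|` for a normal elementary abelian subgroup `V` of a
`p`-solvable group with `O_p(G / C(V)) = 1`.
-/

set_option autoImplicit false

open Cfsg

namespace CfsgLib.FFModule

universe u

variable {G : Type u} [Group G] [Finite G] {p : ℕ} [Fact p.Prime]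

theorem card_inf_mul_card_map (A C : Subgroup G) [C.Normal] :
    Nat.card ↥(A ⊓ C) * Nat.card ↥(A.map (QuotientGroup.mk' C)) = Nat.card A := by
  have h := Subgroup.relIndex_mul_relIndex ⊥ (A ⊓ C) A bot_le inf_le_left
  rw [Subgroup.relIndex_bot_left, Subgroup.relIndex_bot_left, Subgroup.inf_relIndex_left,
    CfsgLib.Constrained.relIndex_eq_card_map] at h
  exact h

/-- The offender bound in a `p`-solvable group. -/
theorem card_mul_fixed_le_of_pSolvable (hsep : IsPSolvable p G) (V : Subgroup G) [V.Normal]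
    (hV : IsElementaryAbelian p V) (hO : pCore p (G ⧸ Subgroup.centralizer (V : Set G)) = ⊥)
    (A : Subgroup G) (hA : IsElementaryAbelian p A) :
    Nat.card A * Nat.card ↥(V ⊓ Subgroup.centralizer (A : Set G)) ≤
      Nat.card ↥(A ⊓ Subgroup.centralizer (V : Set G)) * Nat.card V := by
  classical
  set C := Subgroup.centralizer (V : Set G) with hC
  have hVc := CfsgLib.LocalP.isElementaryAbelian_iff.1 hV
  let act : G →* MulAut V := MulAut.conjNormal
  have hker : ∀ g ∈ C, act g = 1 := fun g hg => MulEquiv.ext fun v => Subtype.ext (by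
    rw [show ((act g v : V) : G) = g * v * g⁻¹ from MulAut.conjNormal_apply g v,
      ← Subgroup.mem_centralizer_iff.1 hg v v.2, mul_inv_cancel_right]
    rfl)
  let φ : G ⧸ C →* MulAut V := QuotientGroup.lift C act hker
  have hφ : ∀ (g : G) (v : V), ((φ (g : G ⧸ C) v : V) : G) = g * v * g⁻¹ := fun g v =>
    MulAut.conjNormal_apply g v
  haveI : Finite (SemidirectProduct V (G ⧸ C) φ) := Finite.of_equiv _ (SemidirectProduct.equivProd (φ := φ)).symm
  let j : V →* SemidirectProduct V (G ⧸ C) φ := SemidirectProduct.inl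
  let i : G ⧸ C →* SemidirectProduct V (G ⧸ C) φ := SemidirectProduct.inr
  have hij : ∀ h v, i h * j v * (i h)⁻¹ = j (φ h v) := fun h v => by
    rw [← map_inv i h]
    exact (SemidirectProduct.inl_aut h v).symm
  have hH : IsPSolvable p (G ⧸ C) := CfsgLib.Constrained.IsPSolvable.quotient hsep C
  have hV' : IsElementaryAbelian p j.range := by
    rw [CfsgLib.LocalP.isElementaryAbelian_iff]
    refine ⟨?_, ?_⟩
    · rintro _ ⟨a, rfl⟩ _ ⟨b, rfl⟩
      rw [← map_mul, ← map_mul, show a * b = b * a from Subtype.ext (hVc.1 a a.2 b b.2)]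
    · rintro _ ⟨a, rfl⟩
      rw [← map_pow, show a ^ p = 1 from Subtype.ext (hVc.2 a a.2), map_one]
  haveI : (pPrimeCore p (G ⧸ C)).Normal := Cfsg.pPrimeCore_normal p _
  have S : Setting p j.range i.range ((pPrimeCore p (G ⧸ C)).map i) :=
    { elem := hV'
      normV := by
        rintro _ ⟨h, rfl⟩
        rw [Subgroup.mem_normalizer_iff]
        intro x
        constructor
        · rintro ⟨v, rfl⟩
          exact ⟨φ h v, (hij h v).symm⟩
        · rintro ⟨v, hv⟩
          refine ⟨φ h⁻¹ v, ?_⟩
          rw [← hij, hv, map_inv]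
          simp only [inv_inv, mul_assoc, inv_mul_cancel_left, inv_mul_cancel, mul_one]
      faithful := by
        rintro _ ⟨h, rfl⟩ hc
        obtain ⟨g, rfl⟩ := QuotientGroup.mk_surjective h
        rw [(QuotientGroup.eq_one_iff g).2 ?_, map_one]
        refine Subgroup.mem_centralizer_iff.2 fun v hv => ?_
        have h1 := hij (g : G ⧸ C) ⟨v, hv⟩
        rw [hc (j ⟨v, hv⟩) ⟨_, rfl⟩, mul_inv_cancel_right] at h1
        have h2 := congrArg Subtype.val (SemidirectProduct.inl_injective h1)
        rw [hφ] at h2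
        calc v * g = g * v * g⁻¹ * g := congrArg (· * g) h2
          _ = g * v := inv_mul_cancel_right _ _
      F_le := Subgroup.map_le_range i _
      normF := by
        rintro _ ⟨h, rfl⟩
        rw [Subgroup.mem_normalizer_iff]
        intro x
        constructor
        · rintro ⟨f, hf, rfl⟩
          exact ⟨h * f * h⁻¹, (inferInstance : (pPrimeCore p (G ⧸ C)).Normal).conj_mem f hf h, by simp⟩
        · rintro ⟨f, hf, hfx⟩
          refine ⟨h⁻¹ * f * h⁻¹⁻¹, (inferInstance : (pPrimeCore p (G ⧸ C)).Normal).conj_mem f hf h⁻¹, ?_⟩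
          rw [map_mul, map_mul, hfx]
          simp [mul_assoc]
      coprime := by
        rw [Subgroup.card_map_of_injective SemidirectProduct.inr_injective]
        exact CfsgLib.Constrained.pPrimeCore_coprime
      selfc := by
        rintro _ ⟨h, rfl⟩ hc
        refine ⟨h, CfsgLib.Constrained.centralizer_pPrimeCore_le hH hO
          (Subgroup.mem_centralizer_iff.2 fun f hf => SemidirectProduct.inr_injective (φ := φ) ?_), rfl⟩
        rw [map_mul, map_mul]
        exact (hc (i f) ⟨f, hf, rfl⟩).symm }
  set A' := (A.map (QuotientGroup.mk' C)).map i with hA'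
  have hA'el : IsElementaryAbelian p A' :=
    CfsgLib.LocalP.isElementaryAbelian_map _ (CfsgLib.LocalP.isElementaryAbelian_map _ hA)
  have hbound := S.card_mul_fixedPts_le (Subgroup.map_le_range i _) hA'el
  have hfix : Nat.card ↥(V ⊓ Subgroup.centralizer (A : Set G)) ≤ Nat.card ↥(fixedPts j.range A') := by
    have h1 : ((V ⊓ Subgroup.centralizer (A : Set G)).subgroupOf V).map j ≤ fixedPts j.range A' := by
      rintro _ ⟨v, hv, rfl⟩
      have hv' : (v : G) ∈ V ∧ (v : G) ∈ Subgroup.centralizer (A : Set G) := Subgroup.mem_inf.1 hv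
      rw [mem_fixedPts]
      refine ⟨⟨v, rfl⟩, ?_⟩
      rintro _ ⟨_, ⟨a, ha, rfl⟩, rfl⟩
      have h2 : φ (QuotientGroup.mk' C a) v = v := Subtype.ext (by
        rw [show (QuotientGroup.mk' C a) = ((a : G) : G ⧸ C) from rfl, hφ,
          Subgroup.mem_centralizer_iff.1 hv'.2 a ha, mul_inv_cancel_right])
      calc i (QuotientGroup.mk' C a) * j v =
            i (QuotientGroup.mk' C a) * j v * (i (QuotientGroup.mk' C a))⁻¹ * i (QuotientGroup.mk' C a) :=
            (inv_mul_cancel_right _ _).symm
        _ = j v * i (QuotientGroup.mk' C a) := by rw [hij, h2]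
    refine le_trans (le_of_eq ?_) (Subgroup.card_le_of_le h1)
    rw [Subgroup.card_map_of_injective SemidirectProduct.inl_injective]
    exact (Nat.card_congr (Subgroup.subgroupOfEquivOfLe inf_le_left).toEquiv).symm
  have hcardV : Nat.card j.range = Nat.card V :=
    (Nat.card_congr (MonoidHom.ofInjective SemidirectProduct.inl_injective).toEquiv).symm
  rw [Subgroup.card_map_of_injective SemidirectProduct.inr_injective, hcardV] at hbound
  rw [← card_inf_mul_card_map A C, mul_assoc]
  exact Nat.mul_le_mul_left _ (le_trans (Nat.mul_le_mul_left _ hfix) hbound)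

end CfsgLib.FFModule
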