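import Cfsg.Agent.S0597
import Cfsg.Agent.Subnormal.Basic
import Cfsg.Agent.LocalP.ThompsonJ
import Cfsg.Agent.LocalCharP.Residual
import Cfsg.Agent.Eq.Def_Solvable

/-!
Two subnormal subgroups acting irreducibly on incomparable commutator modules commute, provided the group
they generate has trivial `p`-core.
-/

set_option autoImplicit false

open Cfsg
open scoped commutatorElement

namespace CfsgLib.FFModule.SubnormalPair

variable {G : Type*} [Group G]

/-- The hypotheses on two subnormal subgroups of `E`. -/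
structure Data (p : ℕ) (V E E₁ E₂ : Subgroup G) : Prop where
  elem : IsElementaryAbelian p V
  normV : E ≤ Subgroup.normalizer (V : Set G)
  faithful : E ⊓ Subgroup.centralizer (V : Set G) = ⊥
  gen : E = E₁ ⊔ E₂
  sn₁ : (E₁.subgroupOf E).IsSubnormal
  sn₂ : (E₂.subgroupOf E).IsSubnormal
  core : pCore p ↥E = ⊥
  irr₁ : ∀ U : Subgroup G, U ≤ ⁅V, E₁⁆ → E₁ ≤ Subgroup.normalizer (U : Set G) → U = ⊥ ∨ U = ⁅V, E₁⁆
  irr₂ : ∀ U : Subgroup G, U ≤ ⁅V, E₂⁆ → E₂ ≤ Subgroup.normalizer (U : Set G) → U = ⊥ ∨ U = ⁅V, E₂⁆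
  h12 : ¬ ⁅V, E₁⁆ ≤ ⁅V, E₂⁆
  h21 : ¬ ⁅V, E₂⁆ ≤ ⁅V, E₁⁆
  hc₁ : 2 < Nat.card E₁
  hc₂ : 2 < Nat.card E₂

/-- The conclusion. -/
def Split (V E E₁ E₂ : Subgroup G) : Prop :=
  ⁅E₁, E₂⁆ = ⊥ ∧ E₁ ⊓ E₂ = ⊥ ∧ ⁅V, E₁⁆ ⊓ ⁅V, E₂⁆ = ⊥ ∧ ⁅V, E⁆ = ⁅V, E₁⁆ ⊔ ⁅V, E₂⁆

variable {p : ℕ} {V E E₁ E₂ : Subgroup G}

theorem Data.swap (D : Data p V E E₁ E₂) : Data p V E E₂ E₁ :=
  ⟨D.elem, D.normV, D.faithful, D.gen.trans (sup_comm _ _), D.sn₂, D.sn₁, D.core, D.irr₂, D.irr₁,
    D.h21, D.h12, D.hc₂, D.hc₁⟩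

theorem Split.symm (h : Split V E E₁ E₂) : Split V E E₂ E₁ :=
  ⟨by rw [Subgroup.commutator_comm]; exact h.1, by rw [inf_comm]; exact h.2.1,
    by rw [inf_comm]; exact h.2.2.1, by rw [sup_comm]; exact h.2.2.2⟩

theorem Data.le₁ (D : Data p V E E₁ E₂) : E₁ ≤ E := D.gen ▸ le_sup_left

theorem Data.le₂ (D : Data p V E E₁ E₂) : E₂ ≤ E := D.gen ▸ le_sup_right

theorem le_normalizer_of_conj {K W : Subgroup G} (h : ∀ g ∈ K, ∀ w ∈ W, g * w * g⁻¹ ∈ W) :
    K ≤ Subgroup.normalizer (W : Set G) := by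
  intro g hg
  rw [Subgroup.mem_normalizer_iff]
  exact fun x => ⟨h g hg x, fun hx => by simpa [mul_assoc] using h g⁻¹ (inv_mem hg) _ hx⟩

theorem conj_mem {K W : Subgroup G} (h : K ≤ Subgroup.normalizer (W : Set G)) {g w : G} (hg : g ∈ K)
    (hw : w ∈ W) : g * w * g⁻¹ ∈ W :=
  (Subgroup.mem_normalizer_iff.mp (h hg) w).mp hw

/-- An element normalizing `V` and `K` normalizes `[V, K]`. -/
theorem conj_commutator {K : Subgroup G} {g : G} (hgV : g ∈ Subgroup.normalizer (V : Set G))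
    (hgK : g ∈ Subgroup.normalizer (K : Set G)) {w : G} (hw : w ∈ ⁅V, K⁆) :
    g * w * g⁻¹ ∈ ⁅V, K⁆ := by
  have h : ⁅V, K⁆.map (MulAut.conj g).toMonoidHom = ⁅V, K⁆ := by
    have e₁ : V.map (MulAut.conj g).toMonoidHom = V :=
      Subgroup.mem_normalizer_iff_map_conj_eq.mp hgV
    have e₂ : K.map (MulAut.conj g).toMonoidHom = K :=
      Subgroup.mem_normalizer_iff_map_conj_eq.mp hgK
    rw [Subgroup.map_commutator, e₁, e₂]
  rw [← h]
  exact Subgroup.mem_map_of_mem _ hw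

theorem commutator_le_V {K : Subgroup G} (hK : K ≤ Subgroup.normalizer (V : Set G)) : ⁅V, K⁆ ≤ V :=
  Subgroup.commutator_le.mpr fun v hv g hg => by
    simpa [commutatorElement_def, mul_assoc] using mul_mem hv (conj_mem hK hg (inv_mem hv))

theorem shift_mem {K : Subgroup G} {v g : G} (hv : v ∈ V) (hg : g ∈ K) :
    g * v * g⁻¹ * v⁻¹ ∈ ⁅V, K⁆ := by
  have h := inv_mem (Subgroup.commutator_mem_commutator hv hg : ⁅v, g⁆ ∈ ⁅V, K⁆)
  rwa [commutatorElement_inv] at h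

variable [Finite G] [Fact p.Prime]

/-- A normal `p`-subgroup of a subnormal subgroup is trivial. -/
theorem eq_bot_of_pGroup (D : Data p V E E₁ E₂) {K P : Subgroup G} (hKE : K ≤ E)
    (hK : (K.subgroupOf E).IsSubnormal) (hPK : P ≤ K) (hn : K ≤ Subgroup.normalizer (P : Set G))
    (hP : IsPGroup p P) : P = ⊥ := by
  have hsn : (P.subgroupOf E).IsSubnormal :=
    Subgroup.IsSubnormal.step _ (K.subgroupOf E) (Subgroup.comap_mono hPK) hK
      ⟨fun x hx g => conj_mem hn g.2 hx⟩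
  have h := CfsgLib.LocalCharP.le_pCore_of_isSubnormal hsn
    (hP.of_equiv (Subgroup.subgroupOfEquivOfLe (hPK.trans hKE)).symm)
  rw [D.core] at h
  rw [eq_bot_iff]
  intro x hx
  exact Subgroup.mem_bot.mpr
    (congrArg Subtype.val (Subgroup.mem_bot.mp (h (show ⟨x, hKE (hPK hx)⟩ ∈ P.subgroupOf E from hx))))

/-- Only the identity of `E₁` fixes `[V, E₁]` pointwise. -/
theorem eq_one_of_fix (D : Data p V E E₁ E₂) {x : G} (hx : x ∈ E₁)
    (hfix : ∀ w ∈ ⁅V, E₁⁆, x * w * x⁻¹ = w) : x = 1 := by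
  set W := ⁅V, E₁⁆
  have hnV := D.le₁.trans D.normV
  have hnW : E₁ ≤ Subgroup.normalizer (W : Set G) :=
    le_normalizer_of_conj fun g hg _ hw => conj_commutator (hnV hg) (Subgroup.le_normalizer hg) hw
  set P := E₁ ⊓ Subgroup.centralizer (W : Set G)
  have hP : IsPGroup p P := by
    intro y
    obtain ⟨hy, hyc⟩ := Subgroup.mem_inf.mp y.2
    have hyW : ∀ w ∈ W, (y : G) * w * (y : G)⁻¹ = w := fun w hw =>
      mul_inv_eq_iff_eq_mul.mpr (Subgroup.mem_centralizer_iff.mp hyc w hw).symm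
    refine ⟨1, Subtype.ext ?_⟩
    rw [pow_one, SubmonoidClass.coe_pow, OneMemClass.coe_one]
    have key : ∀ v ∈ V, ∀ n : ℕ, (y : G) ^ n * v * ((y : G) ^ n)⁻¹ =
        ((y : G) * v * (y : G)⁻¹ * v⁻¹) ^ n * v := by
      intro v hv n
      induction n with
      | zero => simp
      | succ n ih =>
        calc (y : G) ^ (n + 1) * v * ((y : G) ^ (n + 1))⁻¹
            = (y : G) * ((y : G) ^ n * v * ((y : G) ^ n)⁻¹) * (y : G)⁻¹ := by rw [pow_succ']; group
          _ = ((y : G) * ((y : G) * v * (y : G)⁻¹ * v⁻¹) ^ n * (y : G)⁻¹) *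
              ((y : G) * v * (y : G)⁻¹) := by rw [ih]; group
          _ = ((y : G) * v * (y : G)⁻¹ * v⁻¹) ^ n * (((y : G) * v * (y : G)⁻¹ * v⁻¹) * v) := by
            rw [← conj_pow, hyW _ (shift_mem hv hy)]; group
          _ = _ := by rw [← mul_assoc, ← pow_succ]
    refine Subgroup.mem_bot.mp (D.faithful ▸ Subgroup.mem_inf.mpr ⟨pow_mem (D.le₁ hy) p,
      Subgroup.mem_centralizer_iff.mpr fun v hv => ?_⟩)
    have h := key v hv p
    rw [(CfsgLib.LocalP.isElementaryAbelian_iff.mp D.elem).2 _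
      (commutator_le_V hnV (shift_mem hv hy)), one_mul] at h
    exact (mul_inv_eq_iff_eq_mul.mp h).symm
  have hn : E₁ ≤ Subgroup.normalizer (P : Set G) := le_normalizer_of_conj fun g hg y hy => by
    obtain ⟨hy1, hy2⟩ := Subgroup.mem_inf.mp hy
    refine Subgroup.mem_inf.mpr ⟨mul_mem (mul_mem hg hy1) (inv_mem hg),
      Subgroup.mem_centralizer_iff.mpr fun w hw => ?_⟩
    have hw' : g⁻¹ * w * g⁻¹⁻¹ ∈ W := conj_mem hnW (inv_mem hg) hw
    calc w * (g * y * g⁻¹) = g * ((g⁻¹ * w * g⁻¹⁻¹) * y) * g⁻¹ := by group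
      _ = g * (y * (g⁻¹ * w * g⁻¹⁻¹)) * g⁻¹ := by rw [Subgroup.mem_centralizer_iff.mp hy2 _ hw']
      _ = g * y * g⁻¹ * w := by group
  have hbot := eq_bot_of_pGroup D D.le₁ D.sn₁ inf_le_left hn hP
  exact Subgroup.mem_bot.mp (hbot ▸ Subgroup.mem_inf.mpr ⟨hx, Subgroup.mem_centralizer_iff.mpr
    fun w hw => (mul_inv_eq_iff_eq_mul.mp (hfix w hw)).symm⟩)

/-- No nontrivial element of `[V, E₁]` is fixed by `E₁`. -/
theorem eq_one_of_fixed (D : Data p V E E₁ E₂) {w : G} (hw : w ∈ ⁅V, E₁⁆)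
    (hfix : ∀ e ∈ E₁, e * w * e⁻¹ = w) : w = 1 := by
  set U := ⁅V, E₁⁆ ⊓ Subgroup.centralizer (E₁ : Set G)
  have hU : E₁ ≤ Subgroup.normalizer (U : Set G) := le_normalizer_of_conj fun g hg u hu => by
    have hc := Subgroup.mem_centralizer_iff.mp (Subgroup.mem_inf.mp hu).2 g hg
    rwa [mul_inv_eq_iff_eq_mul.mpr hc]
  rcases D.irr₁ U inf_le_left hU with h | h
  · exact Subgroup.mem_bot.mp (h ▸ Subgroup.mem_inf.mpr ⟨hw,
      Subgroup.mem_centralizer_iff.mpr fun e he => mul_inv_eq_iff_eq_mul.mp (hfix e he)⟩)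
  · have : E₁ = ⊥ := by
      rw [eq_bot_iff]
      intro e he
      refine Subgroup.mem_bot.mpr (eq_one_of_fix D he fun v hv => ?_)
      exact mul_inv_eq_iff_eq_mul.mpr
        (Subgroup.mem_centralizer_iff.mp (Subgroup.mem_inf.mp (h.symm ▸ hv : v ∈ U)).2 e he)
    have := D.hc₁
    rw [‹E₁ = ⊥›, Subgroup.card_bot] at this
    omega

/-- The conclusion when `E₂` normalizes `[V, E₁]`. -/
theorem split_of_normalizes (D : Data p V E E₁ E₂)
    (hn : E₂ ≤ Subgroup.normalizer ((⁅V, E₁⁆ : Subgroup G) : Set G)) : Split V E E₁ E₂ := by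
  set W₁ := ⁅V, E₁⁆
  set W₂ := ⁅V, E₂⁆
  have hV₁ := D.le₁.trans D.normV
  have hV₂ := D.le₂.trans D.normV
  have hn₁ : E₁ ≤ Subgroup.normalizer (W₁ : Set G) :=
    le_normalizer_of_conj fun g hg _ hw => conj_commutator (hV₁ hg) (Subgroup.le_normalizer hg) hw
  have hn₂ : E₂ ≤ Subgroup.normalizer (W₂ : Set G) :=
    le_normalizer_of_conj fun g hg _ hw => conj_commutator (hV₂ hg) (Subgroup.le_normalizer hg) hw
  have hW : W₁ ⊓ W₂ = ⊥ := by
    refine (D.irr₂ _ inf_le_right (le_normalizer_of_conj fun g hg w hw =>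
      Subgroup.mem_inf.mpr ⟨conj_mem hn hg (Subgroup.mem_inf.mp hw).1,
        conj_mem hn₂ hg (Subgroup.mem_inf.mp hw).2⟩)).resolve_right fun h => D.h21 ?_
    exact h ▸ inf_le_left
  have hc : ⁅W₁, E₂⁆ = ⊥ := by
    rw [eq_bot_iff, ← hW]
    refine le_inf ?_ (Subgroup.commutator_mono (commutator_le_V hV₁) le_rfl)
    exact Subgroup.commutator_le.mpr fun w hw g hg => by
      simpa [commutatorElement_def, mul_assoc] using mul_mem hw (conj_mem hn hg (inv_mem hw))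
  have hcomm : ⁅E₁, E₂⁆ = ⊥ := by
    have h := Cfsg.Agent.S0597.result V E D.elem D.normV D.faithful E₁ E₂ D.le₁ D.le₂ D.sn₁ D.sn₂ hc
    rwa [D.core, Subgroup.map_bot, le_bot_iff] at h
  refine ⟨hcomm, ?_, hW, le_antisymm ?_ (sup_le (Subgroup.commutator_mono le_rfl D.le₁)
    (Subgroup.commutator_mono le_rfl D.le₂))⟩
  · rw [eq_bot_iff]
    intro x hx
    obtain ⟨hx1, hx2⟩ := Subgroup.mem_inf.mp hx
    refine Subgroup.mem_bot.mpr (Subgroup.mem_bot.mp (D.faithful ▸ Subgroup.mem_inf.mpr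
      ⟨D.le₁ hx1, Subgroup.mem_centralizer_iff.mpr fun v hv => ?_⟩))
    have h : x * v * x⁻¹ * v⁻¹ = 1 :=
      Subgroup.mem_bot.mp (hW ▸ Subgroup.mem_inf.mpr ⟨shift_mem hv hx1, shift_mem hv hx2⟩)
    exact (mul_inv_eq_iff_eq_mul.mp (mul_inv_eq_one.mp h)).symm
  · have hE₁c : E₁ ≤ Subgroup.normalizer (W₂ : Set G) := le_normalizer_of_conj fun g hg w hw =>
      conj_commutator (hV₁ hg) (Subgroup.centralizer_le_normalizer _
        (Subgroup.commutator_eq_bot_iff_le_centralizer.mp hcomm hg)) hw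
    have hM : E ≤ Subgroup.normalizer ((W₁ ⊔ W₂ : Subgroup G) : Set G) := by
      rw [D.gen]
      refine sup_le (fun g hg => ?_) (fun g hg => ?_) <;>
        rw [Subgroup.mem_normalizer_iff_map_conj_eq, Subgroup.map_sup]
      · rw [Subgroup.mem_normalizer_iff_map_conj_eq.mp (hn₁ hg),
          Subgroup.mem_normalizer_iff_map_conj_eq.mp (hE₁c hg)]
      · rw [Subgroup.mem_normalizer_iff_map_conj_eq.mp (hn hg),
          Subgroup.mem_normalizer_iff_map_conj_eq.mp (hn₂ hg)]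
    let T : Subgroup G :=
      { carrier := {g | g ∈ E ∧ ∀ v ∈ V, g * v * g⁻¹ * v⁻¹ ∈ W₁ ⊔ W₂}
        one_mem' := ⟨one_mem _, fun v _ => by simp⟩
        mul_mem' := by
          rintro g k ⟨hg, hg1⟩ ⟨hk, hk1⟩
          refine ⟨mul_mem hg hk, fun v hv => ?_⟩
          have e : g * k * v * (g * k)⁻¹ * v⁻¹ =
              g * (k * v * k⁻¹ * v⁻¹) * g⁻¹ * (g * v * g⁻¹ * v⁻¹) := by group
          rw [e]
          exact mul_mem (conj_mem hM hg (hk1 v hv)) (hg1 v hv)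
        inv_mem' := by
          rintro g ⟨hg, hg1⟩
          refine ⟨inv_mem hg, fun v hv => ?_⟩
          have h := inv_mem (conj_mem hM (inv_mem hg) (hg1 v hv))
          convert h using 1
          group }
    have hET : E ≤ T := by
      refine D.gen.le.trans (sup_le (fun g hg => ⟨D.le₁ hg, fun v hv => ?_⟩)
        fun g hg => ⟨D.le₂ hg, fun v hv => ?_⟩)
      · exact Subgroup.mem_sup_left (shift_mem hv hg)
      · exact Subgroup.mem_sup_right (shift_mem hv hg)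
    refine Subgroup.commutator_le.mpr fun v hv g hg => ?_
    have h := inv_mem ((hET hg).2 v hv)
    convert h using 1
    rw [commutatorElement_def]
    group

/-- The conjugate pair inside `E`. -/
theorem conj_data (D : Data p V E E₁ E₂) {g : G} (hg : g ∈ E)
    (hne : ⁅V, E₁⁆.map (MulAut.conj g).toMonoidHom ≠ ⁅V, E₁⁆) :
    Data p V (E₁ ⊔ E₁.map (MulAut.conj g).toMonoidHom) E₁ (E₁.map (MulAut.conj g).toMonoidHom) ∧
      Nat.card ↥(E₁ ⊔ E₁.map (MulAut.conj g).toMonoidHom) < Nat.card ↥E := by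
  set c := (MulAut.conj g).toMonoidHom
  have hVc : V.map c = V := Subgroup.mem_normalizer_iff_map_conj_eq.mp (D.normV hg)
  have hW : ⁅V, E₁.map c⁆ = ⁅V, E₁⁆.map c := by rw [Subgroup.map_commutator, hVc]
  have hE₁g : E₁.map c ≤ E := by
    rintro _ ⟨x, hx, rfl⟩
    exact mul_mem (mul_mem hg (D.le₁ hx)) (inv_mem hg)
  set L := E₁ ⊔ E₁.map c
  have hLE : L ≤ E := sup_le D.le₁ hE₁g
  have hsn : ((E₁.map c).subgroupOf E).IsSubnormal := by
    have h := CfsgLib.Subnormal.isSubnormal_conj D.sn₁ (⟨g, hg⟩ : ↥E)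
    convert h using 1
    ext x
    constructor
    · rintro ⟨y, hy, hyx⟩
      exact ⟨⟨y, D.le₁ hy⟩, hy, Subtype.ext hyx⟩
    · rintro ⟨y, hy, rfl⟩
      exact ⟨(y : G), hy, rfl⟩
  have hLsn := CfsgLib.Subnormal.subgroupOf_sup_isSubnormal D.le₁ hE₁g D.sn₁ hsn
  have hcard : Nat.card ↥(⁅V, E₁⁆.map c) = Nat.card ↥⁅V, E₁⁆ :=
    Subgroup.card_map_of_injective (MulAut.conj g).injective
  have hsub : ∀ K : Subgroup G, K ≤ L → (K.subgroupOf E).IsSubnormal →
      (K.subgroupOf L).IsSubnormal := fun K _ h => by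
    have h' := h.comap (Subgroup.inclusion hLE)
    rwa [Subgroup.subgroupOf, Subgroup.comap_comap, Subgroup.subtype_comp_inclusion] at h'
  refine ⟨⟨D.elem, hLE.trans D.normV, le_bot_iff.mp ((inf_le_inf_right _ hLE).trans D.faithful.le),
    rfl, hsub _ le_sup_left D.sn₁, hsub _ le_sup_right hsn, ?_, D.irr₁, ?_, ?_, ?_, D.hc₁, ?_⟩, ?_⟩
  · refine (Subgroup.map_eq_bot_iff_of_injective _ L.subtype_injective).mp
      (eq_bot_of_pGroup D hLE hLsn (Subgroup.map_subtype_le _) (le_normalizer_of_conj ?_)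
        ((CfsgLib.CharP.isPGroup_pCore (G := ↥L) (p := p)).map _))
    rintro k hk _ ⟨y, hy, rfl⟩
    exact ⟨⟨k, hk⟩ * y * ⟨k, hk⟩⁻¹, (pCore_normal p ↥L).conj_mem y hy _, rfl⟩
  · intro U hU hnU
    have hU' : U.comap c ≤ ⁅V, E₁⁆ := by
      intro x hx
      obtain ⟨y, hy, hyx⟩ := (hW ▸ hU hx : c x ∈ ⁅V, E₁⁆.map c)
      rwa [← (MulAut.conj g).injective hyx]
    have hUe : (U.comap c).map c = U := Subgroup.map_comap_eq_self_of_surjective
      (MulAut.conj g).surjective U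
    rcases D.irr₁ _ hU' (le_normalizer_of_conj fun x hx u hu => by
      have h := conj_mem hnU (Subgroup.mem_map_of_mem c hx) hu
      rw [Subgroup.mem_comap, map_mul, map_mul, map_inv]
      exact h) with h | h
    · exact Or.inl (by rw [← hUe, h, Subgroup.map_bot])
    · exact Or.inr (by rw [← hUe, h, hW])
  · rw [hW]
    exact fun h => hne (Subgroup.eq_of_le_of_card_ge h hcard.le).symm
  · rw [hW]
    exact fun h => hne (Subgroup.eq_of_le_of_card_ge h hcard.ge)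
  · rw [Subgroup.card_map_of_injective (MulAut.conj g).injective]
    exact D.hc₁
  · rcases D.sn₁.lt_normal with h | ⟨K, hK, hE₁K, hKlt⟩
    · refine absurd ?_ D.h21
      exact Subgroup.commutator_mono le_rfl (D.le₂.trans (Subgroup.subgroupOf_eq_top.mp h))
    · haveI := hK
      have hle : L ≤ K.map E.subtype := by
        refine sup_le (fun x hx => ⟨⟨x, D.le₁ hx⟩, hE₁K hx, rfl⟩) ?_
        rintro _ ⟨x, hx, rfl⟩
        exact ⟨⟨g, hg⟩ * ⟨x, D.le₁ hx⟩ * ⟨g, hg⟩⁻¹, hK.conj_mem _ (hE₁K hx) _, rfl⟩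
      refine lt_of_le_of_lt (Subgroup.card_le_of_le hle) ?_
      rw [Subgroup.card_map_of_injective E.subtype_injective]
      exact lt_of_le_of_ne (Subgroup.card_le_card_group K) fun h =>
        hKlt.ne (Subgroup.eq_top_of_card_eq K h)

/-- One of the two subgroups normalizes the module of the other. -/
theorem normalizes_or (D : Data p V E E₁ E₂)
    (ih : ∀ L A B : Subgroup G, Nat.card L < Nat.card E → Data p V L A B → Split V L A B)
    (hn : ¬ E₂ ≤ Subgroup.normalizer ((⁅V, E₁⁆ : Subgroup G) : Set G))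
    (hle : Nat.card ↥⁅V, E₂⁆ ≤ Nat.card ↥⁅V, E₁⁆) : False := by
  set W₁ := ⁅V, E₁⁆ with hW₁
  set W₂ := ⁅V, E₂⁆
  have hV₁ := D.le₁.trans D.normV
  have hV₂ := D.le₂.trans D.normV
  have comm : ∀ x ∈ V, ∀ y ∈ V, x * y = y * x :=
    (CfsgLib.LocalP.isElementaryAbelian_iff.mp D.elem).1
  have hW₁V : W₁ ≤ V := commutator_le_V hV₁
  -- conjugates distinct from `W₁` are centralized by `E₁`
  have mov : ∀ h ∈ E₂, W₁.map (MulAut.conj h).toMonoidHom ≠ W₁ → ∀ w ∈ W₁,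
      (h * w * h⁻¹ ∈ W₁ → w = 1) ∧ ∀ e ∈ E₁, e * (h * w * h⁻¹) * e⁻¹ = h * w * h⁻¹ := by
    intro h hh hne w hw
    obtain ⟨D', hlt⟩ := conj_data D (D.le₂ hh) hne
    obtain ⟨hcm, -, hdis, -⟩ := ih _ _ _ hlt D'
    have hVc : V.map (MulAut.conj h).toMonoidHom = V :=
      Subgroup.mem_normalizer_iff_map_conj_eq.mp (hV₂ hh)
    have hmem : h * w * h⁻¹ ∈ ⁅V, E₁.map (MulAut.conj h).toMonoidHom⁆ := by
      have h' : h * w * h⁻¹ ∈ ⁅V, E₁⁆.map (MulAut.conj h).toMonoidHom := Subgroup.mem_map_of_mem _ hw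
      rwa [Subgroup.map_commutator, hVc] at h'
    refine ⟨fun h1 => conj_eq_one_iff.mp
      (Subgroup.mem_bot.mp (hdis ▸ Subgroup.mem_inf.mpr ⟨h1, hmem⟩)), fun e he => ?_⟩
    have hmem' := conj_commutator (hV₁ he) (Subgroup.centralizer_le_normalizer _
      (Subgroup.commutator_eq_bot_iff_le_centralizer.mp hcm he)) hmem
    refine mul_inv_eq_one.mp (Subgroup.mem_bot.mp (hdis ▸ Subgroup.mem_inf.mpr
      ⟨shift_mem (conj_mem hV₂ hh (hW₁V hw)) he, mul_mem hmem' (inv_mem hmem)⟩))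
  obtain ⟨g, hg, hgm⟩ : ∃ g ∈ E₂, W₁.map (MulAut.conj g).toMonoidHom ≠ W₁ := by
    by_contra! h
    exact hn fun g hg => Subgroup.mem_normalizer_iff_map_conj_eq.mpr (h g hg)
  -- `W₂` consists of the elements `g w g⁻¹ w⁻¹`
  let δ : ↥W₁ → ↥W₂ := fun w => ⟨g * w * g⁻¹ * (w : G)⁻¹, shift_mem (hW₁V w.2) hg⟩
  have hδ : Function.Injective δ := fun w w' he => by
    have he' : g * w * g⁻¹ * (w : G)⁻¹ = g * w' * g⁻¹ * (w' : G)⁻¹ := congrArg Subtype.val he
    have h : g * ((w' : G)⁻¹ * w) * g⁻¹ = (w' : G)⁻¹ * w := by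
      calc g * ((w' : G)⁻¹ * w) * g⁻¹
          = (g * w' * g⁻¹)⁻¹ * (g * w * g⁻¹ * (w : G)⁻¹) * w := by group
        _ = _ := by rw [he']; group
    have h1 := (mov g hg hgm _ (mul_mem (inv_mem w'.2) w.2)).1 (by rw [h]; exact mul_mem (inv_mem w'.2) w.2)
    exact Subtype.ext (inv_mul_eq_one.mp h1).symm
  have hsurj : Function.Surjective δ := (hδ.bijective_of_nat_card_le hle).2
  -- all moving elements act like `g` on `W₁`
  have same : ∀ h ∈ E₂, W₁.map (MulAut.conj h).toMonoidHom ≠ W₁ → ∀ w ∈ W₁,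
      h * w * h⁻¹ = g * w * g⁻¹ := by
    intro h hh hne w hw
    obtain ⟨⟨w', hw'⟩, he⟩ := hsurj ⟨h * w * h⁻¹ * w⁻¹, shift_mem (hW₁V hw) hh⟩
    have he' : g * w' * g⁻¹ * w'⁻¹ = h * w * h⁻¹ * w⁻¹ := congrArg Subtype.val he
    have hww : w = w' := by
      refine inv_mul_eq_one.mp (eq_one_of_fixed D (mul_mem (inv_mem hw) hw') fun e he1 => ?_)
      have e1 : e * (g * w' * g⁻¹) * e⁻¹ * (e * w'⁻¹ * e⁻¹) =
          e * (h * w * h⁻¹) * e⁻¹ * (e * w⁻¹ * e⁻¹) := by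
        calc e * (g * w' * g⁻¹) * e⁻¹ * (e * w'⁻¹ * e⁻¹) = e * (g * w' * g⁻¹ * w'⁻¹) * e⁻¹ := by
              group
          _ = _ := by rw [he']; group
      rw [(mov g hg hgm w' hw').2 e he1, (mov h hh hne w hw).2 e he1] at e1
      calc e * (w⁻¹ * w') * e⁻¹ = (e * w⁻¹ * e⁻¹) * (e * w'⁻¹ * e⁻¹)⁻¹ := by group
        _ = (h * w * h⁻¹)⁻¹ * (g * w' * g⁻¹) := by
            rw [eq_inv_mul_iff_mul_eq, ← mul_assoc, ← e1, mul_inv_cancel_right]
        _ = (h * w * h⁻¹)⁻¹ * (g * w' * g⁻¹ * w'⁻¹) * w' := by group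
        _ = w⁻¹ * w' := by rw [he']; group
    subst hww
    exact (mul_right_cancel he').symm
  have fixed : ∀ k ∈ E₂, W₁.map (MulAut.conj k).toMonoidHom = W₁ → ∀ w ∈ W₁,
      k * w * k⁻¹ = w ∧ k * (g * w * g⁻¹) * k⁻¹ = g * w * g⁻¹ := by
    intro k hk hfix w hw
    have h1 : W₁.map (MulAut.conj (g * k)).toMonoidHom ≠ W₁ := by
      rw [show (MulAut.conj (g * k)).toMonoidHom =
        (MulAut.conj g).toMonoidHom.comp (MulAut.conj k).toMonoidHom by
          ext x; simp [mul_assoc], ← Subgroup.map_map, hfix]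
      exact hgm
    have h2 : W₁.map (MulAut.conj (k * g)).toMonoidHom ≠ W₁ := by
      rw [show (MulAut.conj (k * g)).toMonoidHom =
        (MulAut.conj k).toMonoidHom.comp (MulAut.conj g).toMonoidHom by
          ext x; simp [mul_assoc], ← Subgroup.map_map]
      intro he
      nth_rewrite 2 [← hfix] at he
      exact hgm (Subgroup.map_injective (MulAut.conj k).injective he)
    have e1 := same _ (mul_mem hg hk) h1 w hw
    have e2 := same _ (mul_mem hk hg) h2 w hw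
    refine ⟨?_, ?_⟩
    · calc k * w * k⁻¹ = g⁻¹ * (g * k * w * (g * k)⁻¹) * g := by group
        _ = g⁻¹ * (g * w * g⁻¹) * g := by rw [e1]
        _ = w := by group
    · calc k * (g * w * g⁻¹) * k⁻¹ = k * g * w * (k * g)⁻¹ := by group
        _ = _ := e2
  -- every element of `E₂` fixes `W₂` pointwise or inverts it
  have flip : ∀ h ∈ E₂, W₁.map (MulAut.conj h).toMonoidHom ≠ W₁ → ∀ z ∈ W₂, h * z * h⁻¹ = z⁻¹ := by
    intro h hh hne z hz
    obtain ⟨⟨w, hw⟩, he⟩ := hsurj ⟨z, hz⟩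
    have he' : g * w * g⁻¹ * w⁻¹ = z := congrArg Subtype.val he
    have hgm' : W₁.map (MulAut.conj (h * g)).toMonoidHom = W₁ := by
      by_contra hne'
      have e1 := same _ (mul_mem hh hg) hne' w hw
      have hw1 : ∀ v ∈ W₁, v = 1 := by
        intro v hv
        have e2 := same _ (mul_mem hh hg) hne' v hv
        have e3 := same h hh hne v hv
        have e4 : h * (g * v * g⁻¹) * h⁻¹ = h * v * h⁻¹ := by
          calc h * (g * v * g⁻¹) * h⁻¹ = h * g * v * (h * g)⁻¹ := by group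
            _ = g * v * g⁻¹ := e2
            _ = h * v * h⁻¹ := e3.symm
        have e5 : g * v * g⁻¹ = v := mul_left_cancel (mul_right_cancel e4)
        exact (mov g hg hgm v hv).1 (by rw [e5]; exact hv)
      refine D.h12 fun v hv => ?_
      rw [hw1 v hv]
      exact one_mem _
    have e1 := (fixed _ (mul_mem hh hg) hgm' w hw).1
    calc h * z * h⁻¹ = (h * g * w * (h * g)⁻¹) * (h * w * h⁻¹)⁻¹ := by rw [← he']; group
      _ = z⁻¹ := by rw [e1, same h hh hne w hw, ← he']; group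
  have fix2 : ∀ k ∈ E₂, W₁.map (MulAut.conj k).toMonoidHom = W₁ → k = 1 := by
    intro k hk hfix
    refine eq_one_of_fix D.swap hk fun z hz => ?_
    obtain ⟨⟨w, hw⟩, he⟩ := hsurj ⟨z, hz⟩
    have he' : g * w * g⁻¹ * w⁻¹ = z := congrArg Subtype.val he
    obtain ⟨e1, e2⟩ := fixed k hk hfix w hw
    calc k * z * k⁻¹ = k * (g * w * g⁻¹) * k⁻¹ * (k * w * k⁻¹)⁻¹ := by rw [← he']; group
      _ = z := by rw [e1, e2, he']
  have hall : ∀ h ∈ E₂, h = 1 ∨ h = g := by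
    intro h hh
    by_cases hne : W₁.map (MulAut.conj h).toMonoidHom = W₁
    · exact Or.inl (fix2 h hh hne)
    · refine Or.inr (mul_inv_eq_one.mp (eq_one_of_fix D.swap (mul_mem hh (inv_mem hg)) fun z hz => ?_))
      have e1 := flip g hg hgm z⁻¹ (inv_mem hz)
      rw [inv_inv] at e1
      calc h * g⁻¹ * z * (h * g⁻¹)⁻¹ = h * (g⁻¹ * z * g) * h⁻¹ := by group
        _ = h * z⁻¹ * h⁻¹ := by
            rw [show g⁻¹ * z * g = z⁻¹ by
              calc g⁻¹ * z * g = g⁻¹ * (g * z⁻¹ * g⁻¹) * g := by rw [e1]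
                _ = z⁻¹ := by group]
        _ = z := by rw [← conj_inv, flip h hh hne z hz, inv_inv]
  have h2 : (E₂ : Set G) ⊆ {1, g} := fun h hh => by simpa using hall h hh
  have h3 := Set.ncard_le_ncard h2 (Set.toFinite _)
  have h4 : ({1, g} : Set G).ncard ≤ 2 := by
    refine le_trans (Set.ncard_insert_le _ _) ?_
    rw [Set.ncard_singleton]
  have h5 := D.hc₂
  rw [← SetLike.coe_sort_coe, Nat.card_coe_set_eq] at h5
  omega

theorem split (D : Data p V E E₁ E₂) : Split V E E₁ E₂ := by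
  obtain ⟨n, hn⟩ : ∃ n, Nat.card E = n := ⟨_, rfl⟩
  induction n using Nat.strong_induction_on generalizing E E₁ E₂ with
  | _ n ih =>
    have ih' : ∀ L A B : Subgroup G, Nat.card L < Nat.card E → Data p V L A B → Split V L A B :=
      fun L A B hlt D' => ih _ (hn ▸ hlt) D' rfl
    by_cases h2 : E₂ ≤ Subgroup.normalizer ((⁅V, E₁⁆ : Subgroup G) : Set G)
    · exact split_of_normalizes D h2
    by_cases h1 : E₁ ≤ Subgroup.normalizer ((⁅V, E₂⁆ : Subgroup G) : Set G)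
    · exact (split_of_normalizes D.swap h1).symm
    rcases le_total (Nat.card ↥⁅V, E₂⁆) (Nat.card ↥⁅V, E₁⁆) with h | h
    · exact (normalizes_or D ih' h2 h).elim
    · exact (normalizes_or D.swap ih' h1 h).elim

end CfsgLib.FFModule.SubnormalPair
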